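import Cfsg.Agent.Lib.Helper6.X32.Defs

/-!
# X32 project (S6002): package [FRA] and sign lemmas

Two anticommuting involutions exist in `R = 2^{1+4}_-`.
-/

set_option autoImplicit false
open scoped MatrixGroups Matrix

namespace Cfsg.Agent.Lib.Helper29.X32

open Cfsg.Agent.Lib.Helper6.X32

universe u

section signs

variable {F : Type u} [Field F]

theorem ne_neg_self (h2 : (2 : F) ≠ 0) (y : GL4 F) : y ≠ -y := by
  intro h
  have h1 : (y : M4 F) = -(y : M4 F) := by
    have := congrArg (fun t : GL4 F => (t : M4 F)) h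
    simpa using this
  have h3 : (2 : F) • (y : M4 F) = 0 := by
    rw [two_smul]
    nth_rewrite 1 [h1]
    exact neg_add_cancel _
  have h4 : (y : M4 F) = 0 := (smul_eq_zero.mp h3).resolve_left h2
  exact y.ne_zero h4

theorem anti_mul_anti {x k g : GL4 F} (hx : x * g = -(g * x)) (hk : k * g = -(g * k)) :
    (x * k) * g = g * (x * k) := by
  rw [mul_assoc, hk, mul_neg, ← mul_assoc, hx, neg_mul, neg_neg, mul_assoc]

theorem comm_mul_anti {x k g : GL4 F} (hx : x * g = g * x) (hk : k * g = -(g * k)) :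
    (x * k) * g = -(g * (x * k)) := by
  rw [mul_assoc, hk, mul_neg, ← mul_assoc, hx, mul_assoc]

theorem anti_mul_comm {x k g : GL4 F} (hx : x * g = -(g * x)) (hk : k * g = g * k) :
    (x * k) * g = -(g * (x * k)) := by
  rw [mul_assoc, hk, ← mul_assoc, hx, neg_mul, mul_assoc]

theorem comm_mul_comm {x k g : GL4 F} (hx : x * g = g * x) (hk : k * g = g * k) :
    (x * k) * g = g * (x * k) := by
  rw [mul_assoc, hk, ← mul_assoc, hx, mul_assoc]

theorem anti_symm {x g : GL4 F} (h : x * g = -(g * x)) : g * x = -(x * g) := by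
  rw [h, neg_neg]

/-- a subgroup all of whose elements lie in a finset has at most that many elements. -/
theorem card_le_of_forall_mem (R : Subgroup (GL4 F)) (T : Finset (GL4 F))
    (h : ∀ x ∈ R, x ∈ T) : Nat.card R ≤ T.card := by
  have h1 : Nat.card R ≤ Nat.card T :=
    Nat.card_le_card_of_injective (fun x : R => (⟨x.1, h x.1 x.2⟩ : T))
      (fun a b hab => Subtype.ext (congrArg (fun t : T => (t : GL4 F)) hab))
  have h2 : Nat.card T = T.card := by rw [Nat.card_eq_fintype_card, Fintype.card_coe]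
  rwa [h2] at h1

theorem card_eight_le (a1 a2 a3 a4 a5 a6 a7 a8 : GL4 F) [DecidableEq (GL4 F)] :
    ({a1, a2, a3, a4, a5, a6, a7, a8} : Finset (GL4 F)).card ≤ 8 := by
  refine (Finset.card_insert_le _ _).trans ?_
  refine Nat.succ_le_succ ?_
  refine (Finset.card_insert_le _ _).trans ?_
  refine Nat.succ_le_succ ?_
  exact Finset.card_le_six

/-- an element outside a set of at most eight elements. -/
theorem exists_not_mem_eight (R : Subgroup (GL4 F)) (hcard : Nat.card R = 32)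
    (a1 a2 a3 a4 a5 a6 a7 a8 : GL4 F) :
    ∃ x ∈ R, x ≠ a1 ∧ x ≠ a2 ∧ x ≠ a3 ∧ x ≠ a4 ∧ x ≠ a5 ∧ x ≠ a6 ∧ x ≠ a7 ∧ x ≠ a8 := by
  classical
  by_contra hcon
  push_neg at hcon
  have h1 : ∀ x ∈ R, x ∈ ({a1, a2, a3, a4, a5, a6, a7, a8} : Finset (GL4 F)) := by
    intro x hx
    simp only [Finset.mem_insert, Finset.mem_singleton]
    by_cases h1 : x = a1
    · exact Or.inl h1
    by_cases h2 : x = a2
    · exact Or.inr (Or.inl h2)
    by_cases h3 : x = a3
    · exact Or.inr (Or.inr (Or.inl h3))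
    by_cases h4 : x = a4
    · exact Or.inr (Or.inr (Or.inr (Or.inl h4)))
    by_cases h5 : x = a5
    · exact Or.inr (Or.inr (Or.inr (Or.inr (Or.inl h5))))
    by_cases h6 : x = a6
    · exact Or.inr (Or.inr (Or.inr (Or.inr (Or.inr (Or.inl h6)))))
    by_cases h7 : x = a7
    · exact Or.inr (Or.inr (Or.inr (Or.inr (Or.inr (Or.inr (Or.inl h7))))))
    · exact Or.inr (Or.inr (Or.inr (Or.inr (Or.inr (Or.inr (Or.inr (hcon x hx h1 h2 h3 h4 h5 h6 h7)))))))
  have h2 := card_le_of_forall_mem R _ h1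
  have h3 := card_eight_le a1 a2 a3 a4 a5 a6 a7 a8
  rw [hcard] at h2
  omega

theorem eq_inv_of_mul_one {x d : GL4 F} (h : x * d = 1) : x = d⁻¹ :=
  eq_inv_of_mul_eq_one_left h

theorem eq_neg_inv_of_mul_neg_one {x d : GL4 F} (h : x * d = -1) : x = -d⁻¹ := by
  have : x = (-1) * d⁻¹ := by rw [← h]; group
  rw [this, neg_mul, one_mul]

/-- a non-central involution has an anticommuting involution partner. -/
theorem anti_partner (R : Subgroup (GL4 F)) (hR : RFacts R) (a : GL4 F) (ha : a ∈ R)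
    (haa : a * a = 1) (ha1 : a ≠ 1) (ha2 : a ≠ -1) :
    ∃ b ∈ R, b * b = 1 ∧ a * b = -(b * a) := by
  have hnc : ¬ ∀ k ∈ R, a * k = k * a := fun h => by
    rcases hR.center a ha h with h | h
    · exact ha1 h
    · exact ha2 h
  push_neg at hnc
  obtain ⟨g, hg, hga⟩ := hnc
  have hanti : a * g = -(g * a) := (hR.comm a ha g hg).resolve_left hga
  rcases hR.sq g hg with hgg | hgg
  · exact ⟨g, hg, hgg, hanti⟩
  · refine ⟨g * a, R.mul_mem hg ha, ?_, ?_⟩
    · calc g * a * (g * a) = g * (a * g) * a := by simp only [mul_assoc]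
        _ = g * (-(g * a)) * a := by rw [hanti]
        _ = -((g * g) * (a * a)) := by simp only [mul_neg, neg_mul, mul_assoc]
        _ = 1 := by rw [hgg, haa, mul_one, neg_neg]
    · calc a * (g * a) = (a * g) * a := by rw [mul_assoc]
        _ = -(g * a * a) := by rw [hanti, neg_mul]

end signs

theorem pkgFrA : PkgFrA.{u} := by
  intro F _ R hR
  classical
  have h2 := hR.two_ne
  by_cases hex : ∃ a ∈ R, a * a = 1 ∧ a ≠ 1 ∧ a ≠ -1
  · obtain ⟨a, ha, haa, ha1, ha2⟩ := hex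
    obtain ⟨b, hb, hbb, hab⟩ := anti_partner R hR a ha haa ha1 ha2
    exact ⟨a, ha, b, hb, haa, hbb, hab⟩
  · exfalso
    push_neg at hex
    have hsq : ∀ g ∈ R, g ≠ 1 → g ≠ -1 → g * g = -1 := by
      intro g hg h1 h2'
      rcases hR.sq g hg with h | h
      · exact absurd (hex g hg h h1) h2'
      · exact h
    have hinv : ∀ g : GL4 F, g * g = -1 → g⁻¹ = -g := by
      intro g hg
      apply inv_eq_of_mul_eq_one_right
      rw [mul_neg, hg, neg_neg]
    have hanti : ∀ g ∈ R, ∀ k ∈ R, g ≠ 1 → g ≠ -1 → k ≠ 1 → k ≠ -1 → g * k ≠ 1 → g * k ≠ -1 →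
        g * k = -(k * g) := by
      intro g hg k hk hg1 hg2 hk1 hk2 hgk1 hgk2
      have e1 := hinv g (hsq g hg hg1 hg2)
      have e2 := hinv k (hsq k hk hk1 hk2)
      have e3 := hinv (g * k) (hsq (g * k) (R.mul_mem hg hk) hgk1 hgk2)
      rw [mul_inv_rev, e1, e2, neg_mul_neg] at e3
      rw [e3, neg_neg]
    obtain ⟨g, hg, hg1, hg2, -⟩ := exists_not_mem_eight R hR.card 1 (-1) 1 1 1 1 1 1
    obtain ⟨k, hk, hk1, hk2, hk3, hk4, -⟩ :=
      exists_not_mem_eight R hR.card 1 (-1) g⁻¹ (-g⁻¹) 1 1 1 1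
    have hgk1 : g * k ≠ 1 := fun h => hk3 (eq_inv_of_mul_eq_one_right h)
    have hgk2 : g * k ≠ -1 := fun h => hk4 (by
      have : k = g⁻¹ * (-1) := by rw [← h]; group
      rw [this, mul_neg, mul_one])
    have hgk := hanti g hg k hk hg1 hg2 hk1 hk2 hgk1 hgk2
    obtain ⟨x, hx, hx1, hx2, hx3, hx4, hx5, hx6, hx7, hx8⟩ :=
      exists_not_mem_eight R hR.card 1 (-1) g⁻¹ (-g⁻¹) k⁻¹ (-k⁻¹) (g * k)⁻¹ (-(g * k)⁻¹)
    have aux : ∀ d : GL4 F, x ≠ d⁻¹ → x ≠ -d⁻¹ → d * x ≠ 1 ∧ d * x ≠ -1 := by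
      intro d h h'
      constructor
      · intro hh
        exact h (eq_inv_of_mul_eq_one_right hh)
      · intro hh
        apply h'
        have : x = d⁻¹ * (-1) := by rw [← hh]; group
        rw [this, mul_neg, mul_one]
    have hgx := hanti g hg x hx hg1 hg2 hx1 hx2 (aux g hx3 hx4).1 (aux g hx3 hx4).2
    have hkx := hanti k hk x hx hk1 hk2 hx1 hx2 (aux k hx5 hx6).1 (aux k hx5 hx6).2
    have hgkx := hanti (g * k) (R.mul_mem hg hk) x hx hgk1 hgk2 hx1 hx2
      (aux (g * k) hx7 hx8).1 (aux (g * k) hx7 hx8).2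
    have hcomm : g * k * x = x * (g * k) := by
      calc g * k * x = g * (k * x) := by rw [mul_assoc]
        _ = g * (-(x * k)) := by rw [hkx]
        _ = -((g * x) * k) := by rw [mul_neg, mul_assoc]
        _ = -((-(x * g)) * k) := by rw [hgx]
        _ = x * (g * k) := by rw [neg_mul, neg_neg, mul_assoc]
    rw [hcomm] at hgkx
    exact ne_neg_self h2 _ hgkx

end Cfsg.Agent.Lib.Helper29.X32
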