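import Cfsg.Agent.Lib.Helper29.X32.FrA

/-!
# X32 project (S6002): package [FRB]

The quaternion part: `i, j` of square `-1`, anticommuting, commuting with `a` and `b`.
-/

set_option autoImplicit false
open scoped MatrixGroups Matrix

namespace Cfsg.Agent.Lib.Helper29.X32

open Cfsg.Agent.Lib.Helper6.X32

universe u

/-- correct `x` by an element of `{1, a, b, ab}` so that it commutes with `a` and `b`. -/
theorem exists_fix {F : Type u} [Field F] (R : Subgroup (GL4 F)) (hR : RFacts R) (a b : GL4 F)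
    (ha : a ∈ R) (hb : b ∈ R) (hab : a * b = -(b * a)) (x : GL4 F) (hx : x ∈ R) :
    ∃ d : GL4 F, (d = 1 ∨ d = a ∨ d = b ∨ d = a * b) ∧
      (x * d) * a = a * (x * d) ∧ (x * d) * b = b * (x * d) := by
  have hba : b * a = -(a * b) := anti_symm hab
  rcases hR.comm x hx a ha with hxa | hxa <;> rcases hR.comm x hx b hb with hxb | hxb
  · exact ⟨1, Or.inl rfl, by rw [mul_one]; exact hxa, by rw [mul_one]; exact hxb⟩
  · exact ⟨a, Or.inr (Or.inl rfl), comm_mul_comm hxa rfl, anti_mul_anti hxb hab⟩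
  · exact ⟨b, Or.inr (Or.inr (Or.inl rfl)), anti_mul_anti hxa hba, comm_mul_comm hxb rfl⟩
  · refine ⟨a * b, Or.inr (Or.inr (Or.inr rfl)), anti_mul_anti hxa ?_, anti_mul_anti hxb ?_⟩
    · rw [mul_assoc, hba, mul_neg]
    · rw [← mul_assoc b a b, hba, neg_mul, neg_neg]

theorem pkgFrB : PkgFrB.{u} := by
  intro F _ R hR a ha b hb haa hbb hab
  have h2 := hR.two_ne
  have hba : b * a = -(a * b) := anti_symm hab
  have hdR : ∀ d : GL4 F, (d = 1 ∨ d = a ∨ d = b ∨ d = a * b) → d ∈ R := by
    rintro d (rfl | rfl | rfl | rfl)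
    · exact R.one_mem
    · exact ha
    · exact hb
    · exact R.mul_mem ha hb
  have ha1 : a ≠ 1 := by
    intro h
    rw [h, one_mul, mul_one] at hab
    exact ne_neg_self h2 b hab
  have ha2 : a ≠ -1 := by
    intro h
    rw [h, neg_mul, one_mul, mul_neg, mul_one, neg_neg] at hab
    exact ne_neg_self h2 b hab.symm
  have hkey : ∀ i ∈ R, i * a = a * i → i * b = b * i → i ≠ 1 → i ≠ -1 → i * i = -1 := by
    intro i hi hia hib hi1 hi2
    rcases hR.sq i hi with h | h
    · exfalso
      rcases hR.minus a ha i hi haa h hia.symm with h' | h' | h' | h' | h' | h'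
      · exact ha1 h'
      · exact ha2 h'
      · exact hi1 h'
      · exact hi2 h'
      · rw [← h'] at hib
        rw [hib] at hab
        exact ne_neg_self h2 _ hab
      · have hi' : i = -a := by rw [h', neg_neg]
        rw [hi', neg_mul, mul_neg, neg_inj] at hib
        rw [hib] at hab
        exact ne_neg_self h2 _ hab
    · exact h
  obtain ⟨x, hx, hx1, hx2, hx3, hx4, hx5, hx6, hx7, hx8⟩ :=
    exists_not_mem_eight R hR.card 1 (-1) a⁻¹ (-a⁻¹) b⁻¹ (-b⁻¹) (a * b)⁻¹ (-(a * b)⁻¹)
  obtain ⟨d, hd, hia, hib⟩ := exists_fix R hR a b ha hb hab x hx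
  have hiR : x * d ∈ R := R.mul_mem hx (hdR d hd)
  have hi1 : x * d ≠ 1 := by
    intro h
    have h' := eq_inv_of_mul_one h
    rcases hd with hd | hd | hd | hd
    · rw [hd, inv_one] at h'; exact hx1 h'
    · rw [hd] at h'; exact hx3 h'
    · rw [hd] at h'; exact hx5 h'
    · rw [hd] at h'; exact hx7 h'
  have hi2 : x * d ≠ -1 := by
    intro h
    have h' := eq_neg_inv_of_mul_neg_one h
    rcases hd with hd | hd | hd | hd
    · rw [hd, inv_one] at h'; exact hx2 h'
    · rw [hd] at h'; exact hx4 h'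
    · rw [hd] at h'; exact hx6 h'
    · rw [hd] at h'; exact hx8 h'
  have hii := hkey (x * d) hiR hia hib hi1 hi2
  have hnc : ¬ ∀ k ∈ R, (x * d) * k = k * (x * d) := fun h => by
    rcases hR.center (x * d) hiR h with h | h
    · exact hi1 h
    · exact hi2 h
  push_neg at hnc
  obtain ⟨g, hg, hgi⟩ := hnc
  have hanti : (x * d) * g = -(g * (x * d)) := (hR.comm (x * d) hiR g hg).resolve_left hgi
  have hgi' : g * (x * d) = -((x * d) * g) := anti_symm hanti
  obtain ⟨d', hd', hja, hjb⟩ := exists_fix R hR a b ha hb hab g hg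
  have hjR : g * d' ∈ R := R.mul_mem hg (hdR d' hd')
  have hd'i : d' * (x * d) = (x * d) * d' := by
    rcases hd' with hd' | hd' | hd' | hd'
    · rw [hd', one_mul, mul_one]
    · rw [hd']; exact hia.symm
    · rw [hd']; exact hib.symm
    · rw [hd', mul_assoc, ← hib, ← mul_assoc, ← hia, mul_assoc]
  have hji : (g * d') * (x * d) = -((x * d) * (g * d')) := anti_mul_comm hgi' hd'i
  have hij : (x * d) * (g * d') = -((g * d') * (x * d)) := anti_symm hji
  have hj1 : g * d' ≠ 1 := by
    intro h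
    rw [h, mul_one, one_mul] at hij
    exact ne_neg_self h2 _ hij
  have hj2 : g * d' ≠ -1 := by
    intro h
    rw [h, mul_neg, mul_one, neg_mul, one_mul, neg_neg] at hij
    exact ne_neg_self h2 _ hij.symm
  have hjj := hkey (g * d') hjR hja hjb hj1 hj2
  exact ⟨x * d, g * d', ⟨ha, hb, hiR, hjR, haa, hbb, hab, hii, hjj, hij, hia, hib, hja, hjb⟩⟩

end Cfsg.Agent.Lib.Helper29.X32
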