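-- X32 (S6002) package [SEXT]: symplectic type + exponent 4 + order 32 + centre of order 2 ⟹ extraspecial.
import Mathlib
import Cfsg.Agent.Lib.Helper6.X32.Defs
import Cfsg.Agent.S3762

set_option autoImplicit false

namespace Cfsg.Agent.Lib.Helper29.X32

open Cfsg.Agent.Lib.Helper6.X32

universe u v

/-- The centre is carried to the centre by a group isomorphism. -/
theorem center_map_mulEquiv {P : Type u} {Q : Type v} [Group P] [Group Q] (e : P ≃* Q) :
    (Subgroup.center P).map e.toMonoidHom = Subgroup.center Q := by
  ext y
  simp only [Subgroup.mem_map, Subgroup.mem_center_iff]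
  constructor
  · rintro ⟨x, hx, rfl⟩ g
    obtain ⟨g', rfl⟩ := e.surjective g
    have := congrArg e (hx g')
    simpa using this
  · intro hy
    refine ⟨e.symm y, fun g => ?_, by simp⟩
    apply e.injective
    have := hy (e g)
    simpa using this

/-- The Frattini subgroup is carried to the Frattini subgroup by a group isomorphism. -/
theorem frattini_map_mulEquiv {P : Type u} {Q : Type v} [Group P] [Group Q] (e : P ≃* Q) :
    (frattini P).map e.toMonoidHom = frattini Q :=
  OrderIso.map_radical (MulEquiv.mapSubgroup e)

/-- The derived subgroup is carried to the derived subgroup by a group isomorphism. -/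
theorem commutator_map_mulEquiv {P : Type u} {Q : Type v} [Group P] [Group Q] (e : P ≃* Q) :
    (commutator P).map e.toMonoidHom = commutator Q := by
  rw [commutator_def, Subgroup.map_commutator,
    Subgroup.map_top_of_surjective e.toMonoidHom e.surjective, ← commutator_def]

/-- Extraspecial groups are closed under isomorphism. -/
theorem isExtraspecial_of_mulEquiv {p : ℕ} {P : Type u} {Q : Type v} [Group P] [Group Q]
    (e : P ≃* Q) (h : Cfsg.IsExtraspecial p P) : Cfsg.IsExtraspecial p Q := by
  obtain ⟨⟨hp, hfr, hcomm⟩, hcard⟩ := h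
  have hcen := center_map_mulEquiv e
  have hfr' := frattini_map_mulEquiv e
  have hcm := commutator_map_mulEquiv e
  refine ⟨⟨hp.of_equiv e, ?_, ?_⟩, ?_⟩
  · rw [← hfr', ← hcen, hfr]
  · rw [← hcm, ← hcen, hcomm]
  · rw [← hcen, ← hcard]
    exact Nat.card_congr (e.subgroupMap (Subgroup.center P)).symm.toEquiv

/-- [SEXT] -/
theorem pkgSExt : PkgSExt.{u} := by
  intro G _ hG hsymp hexp hcard hZ
  have : Finite G := Nat.finite_of_card_ne_zero (by omega)
  have : Fact (Nat.Prime 2) := ⟨Nat.prime_two⟩
  obtain ⟨E, R, hER, hsup, hE, hR⟩ := Cfsg.Agent.S3762.result hG hsymp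
  have hord : ∀ g : G, orderOf g ∣ 4 := fun g => hexp ▸ Monoid.order_dvd_exponent g
  -- `R` is cyclic: the other alternatives contain an element of order at least 8
  have hRcyc : IsCyclic R := by
    rcases hR with h | ⟨-, h16, h | h | h⟩
    · exact h
    · exfalso
      obtain ⟨m, ⟨f⟩⟩ := h
      have hc : Nat.card R = 2 * m := by rw [Nat.card_congr f.toEquiv, DihedralGroup.nat_card]
      have h1 : orderOf (f.symm (DihedralGroup.r 1)) = m := by
        rw [MulEquiv.orderOf_eq, DihedralGroup.orderOf_r_one]
      have h2 := hord ((f.symm (DihedralGroup.r 1) : R) : G)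
      rw [Subgroup.orderOf_coe, h1] at h2
      have := Nat.le_of_dvd (by norm_num) h2
      omega
    · exfalso
      obtain ⟨m, ⟨f⟩⟩ := h
      have h1 : orderOf (f.symm (QuaternionGroup.a 1)) = 2 * m := by
        rw [MulEquiv.orderOf_eq, QuaternionGroup.orderOf_a_one]
      have h2 := hord ((f.symm (QuaternionGroup.a 1) : R) : G)
      rw [Subgroup.orderOf_coe, h1] at h2
      have hm : m ≠ 0 := by
        rintro rfl
        simp at h2
      haveI : NeZero m := ⟨hm⟩
      have hc : Nat.card R = 4 * m := by
        rw [Nat.card_congr f.toEquiv, Nat.card_eq_fintype_card, QuaternionGroup.card]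
      have := Nat.le_of_dvd (by norm_num) h2
      omega
    · exfalso
      obtain ⟨n, hn, -, x, y, hx, -, -⟩ := h
      have h2 := hord (x : G)
      rw [Subgroup.orderOf_coe, hx] at h2
      have h3 : 2 ^ n ≤ 4 := Nat.le_of_dvd (by norm_num) h2
      have h4 : 2 ^ 3 ≤ 2 ^ n := Nat.pow_le_pow_right (by norm_num) hn
      omega
  -- hence `R` is central
  have hRZ : R ≤ Subgroup.center G := by
    intro r hr
    rw [Subgroup.mem_center_iff]
    intro g
    have hle : E ⊔ R ≤ Subgroup.centralizer {r} := by
      refine sup_le (fun e he => ?_) (fun r' hr' => ?_)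
      · rw [Subgroup.mem_centralizer_iff]
        intro h hh
        rw [Set.mem_singleton_iff] at hh
        subst hh
        exact (hER e he h hr).symm
      · rw [Subgroup.mem_centralizer_iff]
        intro h hh
        rw [Set.mem_singleton_iff] at hh
        subst hh
        letI := IsCyclic.commGroup (α := R)
        have := mul_comm (⟨h, hr⟩ : R) ⟨r', hr'⟩
        exact congrArg Subtype.val this
    have hg : g ∈ Subgroup.centralizer {r} := hle (hsup ▸ Subgroup.mem_top g)
    rw [Subgroup.mem_centralizer_iff] at hg
    exact (hg r rfl).symm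
  rcases hE with hE | hE
  · exfalso
    rw [hE, bot_sup_eq] at hsup
    rw [hsup, top_le_iff] at hRZ
    rw [hRZ, Subgroup.card_top] at hZ
    omega
  · -- `Z(E)` is central in `G`, so it is `Z(G)`
    have hZE : (Subgroup.center E).map E.subtype ≤ Subgroup.center G := by
      rintro _ ⟨z, hz, rfl⟩
      rw [Subgroup.mem_center_iff]
      intro g
      have hle : E ⊔ R ≤ Subgroup.centralizer {(z : G)} := by
        refine sup_le (fun e he => ?_) (fun r' hr' => ?_)
        · rw [Subgroup.mem_centralizer_iff]
          intro h hh
          rw [Set.mem_singleton_iff] at hh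
          subst hh
          have hz' : z ∈ Subgroup.center E := hz
          rw [Subgroup.mem_center_iff] at hz'
          have := hz' ⟨e, he⟩
          exact (congrArg Subtype.val this).symm
        · rw [Subgroup.mem_centralizer_iff]
          intro h hh
          rw [Set.mem_singleton_iff] at hh
          subst hh
          exact hER z z.2 r' hr'
      have hg : g ∈ Subgroup.centralizer {(z : G)} := hle (hsup ▸ Subgroup.mem_top g)
      rw [Subgroup.mem_centralizer_iff] at hg
      exact (hg _ rfl).symm
    have hcardZE : Nat.card ((Subgroup.center E).map E.subtype) = 2 := by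
      rw [Subgroup.card_map_of_injective E.subtype_injective]
      exact hE.2
    have hZeq : (Subgroup.center E).map E.subtype = Subgroup.center G :=
      Subgroup.eq_of_le_of_card_ge hZE (by rw [hcardZE, hZ])
    have hRE : R ≤ E := by
      refine hRZ.trans ?_
      rw [← hZeq]
      exact Subgroup.map_subtype_le _
    have hEtop : E = ⊤ := by
      rw [← hsup]
      exact (sup_eq_left.mpr hRE).symm
    subst hEtop
    exact isExtraspecial_of_mulEquiv Subgroup.topEquiv hE

end Cfsg.Agent.Lib.Helper29.X32
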